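import Mathlib
import Cfsg.Agent.Lib.Helper4.FXSP.Defs
import Cfsg.Agent.Lib.Helper40.SympOrder

/-!
# Project FXSP (S5975), package [EMB2]

From a `K`-Darboux basis: `d = k m` and `|Sp_{2m}(q^k)|` divides `|N(K) ∩ Sp_{2d}(q)|`.
-/

set_option autoImplicit false
open scoped MatrixGroups
open scoped Matrix

namespace Cfsg.Agent.Lib.Helper64.FXSP

open Cfsg.Agent.Lib.Helper4.FXSP

universe u

/-- two matrices with the same action on vectors are equal -/
theorem emb2_matrix_ext {ι : Type*} [Fintype ι] [DecidableEq ι] {R : Type*} [CommSemiring R]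
    {M M' : Matrix ι ι R} (h : ∀ v, M *ᵥ v = M' *ᵥ v) : M = M' := by
  apply Matrix.toLin'.injective
  apply LinearMap.ext
  intro v
  rw [Matrix.toLin'_apply, Matrix.toLin'_apply, h]

/-- an invertible matrix commuting with `K` normalizes `K` -/
theorem emb2_mem_normalizer {F : Type u} [Field F] {ι : Type} [Fintype ι] [DecidableEq ι]
    (K : Subalgebra F (Matrix ι ι F)) (g : GL ι F)
    (h : ∀ a ∈ K, (g : Matrix ι ι F) * a = a * (g : Matrix ι ι F)) :
    g ∈ Cfsg.Geo.subalgebraNormalizer K := by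
  show ∀ a : Matrix ι ι F,
    a ∈ K ↔ (g : Matrix ι ι F) * a * ((g⁻¹ : GL ι F) : Matrix ι ι F) ∈ K
  intro a
  have hg1 : (g : Matrix ι ι F) * ((g⁻¹ : GL ι F) : Matrix ι ι F) = 1 := by
    rw [← Units.val_mul, mul_inv_cancel, Units.val_one]
  have hg2 : ((g⁻¹ : GL ι F) : Matrix ι ι F) * (g : Matrix ι ι F) = 1 := by
    rw [← Units.val_mul, inv_mul_cancel, Units.val_one]
  constructor
  · intro ha
    rw [h a ha, mul_assoc, hg1, mul_one]; exact ha
  · intro ha
    have h1 := h _ ha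
    have h3 : (g : Matrix ι ι F) * a * ((g⁻¹ : GL ι F) : Matrix ι ι F) * (g : Matrix ι ι F) =
        (g : Matrix ι ι F) * a := by rw [mul_assoc, hg2, mul_one]
    have h4 : (g : Matrix ι ι F) * a * ((g⁻¹ : GL ι F) : Matrix ι ι F) = a := by
      calc (g : Matrix ι ι F) * a * ((g⁻¹ : GL ι F) : Matrix ι ι F)
          = ((g⁻¹ : GL ι F) : Matrix ι ι F) * ((g : Matrix ι ι F) *
              ((g : Matrix ι ι F) * a * ((g⁻¹ : GL ι F) : Matrix ι ι F))) := by
            rw [← mul_assoc, hg2, one_mul]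
        _ = ((g⁻¹ : GL ι F) : Matrix ι ι F) * ((g : Matrix ι ι F) * a) := by rw [h1, h3]
        _ = a := by rw [← mul_assoc, hg2, one_mul]
    rw [← h4]; exact ha

/-- The abstract embedding: `Sp_{2m}(L)` embeds into `N(K) ∩ Sp_{2d}(F)`. -/
theorem emb2_abs {F : Type u} [Field F] [Fintype F] {d : ℕ} (K : Subalgebra F (Md d F))
    {L : Type u} [Field L] {m : ℕ}
    (Φ : (Fin m ⊕ Fin m → L) → Vd d F) (hb : Function.Bijective Φ)
    (hadd : ∀ c c', Φ (c + c') = Φ c + Φ c')
    (ι : L → Md d F) (hι : ∀ (l : L) c, Φ (l • c) = ι l *ᵥ Φ c)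
    (hιK : ∀ a ∈ K, ∃ l : L, ι l = a)
    (hsm : ∀ r : F, ∃ l : L, ∀ c, Φ (l • c) = r • Φ c)
    (t : L → F) (hform : ∀ c c', Cfsg.sympForm d F (Φ c) (Φ c') = t (Cfsg.sympForm m L c c')) :
    Nat.card ↥(Matrix.symplecticGroup (Fin m) L) ∣
      Nat.card ↥(Cfsg.Geo.subalgebraNormalizer K ⊓ Cfsg.spGL d F) := by
  classical
  let E : (Fin m ⊕ Fin m → L) ≃ Vd d F := Equiv.ofBijective Φ hb
  have hEs : ∀ v, Φ (E.symm v) = v := fun v => E.apply_symm_apply v
  have hsE : ∀ c, E.symm (Φ c) = c := fun c => E.symm_apply_apply c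
  have hsadd : ∀ v w, E.symm (v + w) = E.symm v + E.symm w := by
    intro v w
    apply hb.1
    rw [hEs, hadd, hEs, hEs]
  let T : Matrix (Fin m ⊕ Fin m) (Fin m ⊕ Fin m) L → (Vd d F →ₗ[F] Vd d F) := fun A =>
    { toFun := fun v => Φ (A *ᵥ E.symm v)
      map_add' := fun v w => by
        show Φ (A *ᵥ E.symm (v + w)) = Φ (A *ᵥ E.symm v) + Φ (A *ᵥ E.symm w)
        rw [hsadd, Matrix.mulVec_add, hadd]
      map_smul' := fun r v => by
        show Φ (A *ᵥ E.symm (r • v)) = r • Φ (A *ᵥ E.symm v)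
        obtain ⟨l, hl⟩ := hsm r
        have h1 : E.symm (r • v) = l • E.symm v := by
          apply hb.1
          rw [hEs, hl, hEs]
        rw [h1, Matrix.mulVec_smul, hl] }
  have hT : ∀ A v, T A v = Φ (A *ᵥ E.symm v) := fun A v => rfl
  let conj : Matrix (Fin m ⊕ Fin m) (Fin m ⊕ Fin m) L →* Md d F :=
    { toFun := fun A => LinearMap.toMatrix' (T A)
      map_one' := by
        have h1 : T 1 = LinearMap.id := by
          apply LinearMap.ext
          intro v
          rw [hT, Matrix.one_mulVec, hEs]; rfl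
        show LinearMap.toMatrix' (T 1) = 1
        rw [h1, LinearMap.toMatrix'_id]
      map_mul' := fun A B => by
        have h1 : T (A * B) = T A ∘ₗ T B := by
          apply LinearMap.ext
          intro v
          rw [LinearMap.comp_apply, hT, hT, hT, hsE, Matrix.mulVec_mulVec]
        show LinearMap.toMatrix' (T (A * B)) = LinearMap.toMatrix' (T A) * LinearMap.toMatrix' (T B)
        rw [h1, LinearMap.toMatrix'_comp] }
  have hconj : ∀ A v, conj A *ᵥ v = Φ (A *ᵥ E.symm v) := by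
    intro A v
    show LinearMap.toMatrix' (T A) *ᵥ v = _
    rw [← Matrix.toLin'_apply, Matrix.toLin'_toMatrix', hT]
  let ψ : ↥(Matrix.symplecticGroup (Fin m) L) →* GL (Fin d ⊕ Fin d) F :=
    (conj.comp (Matrix.symplecticGroup (Fin m) L).subtype).toHomUnits
  have hψ : ∀ (A : ↥(Matrix.symplecticGroup (Fin m) L)) v,
      ((ψ A : GL (Fin d ⊕ Fin d) F) : Md d F) *ᵥ v =
        Φ ((A : Matrix (Fin m ⊕ Fin m) (Fin m ⊕ Fin m) L) *ᵥ E.symm v) := by
    intro A v
    rw [← hconj]; rfl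
  have hsp : ∀ A : ↥(Matrix.symplecticGroup (Fin m) L), ψ A ∈ Cfsg.spGL d F := by
    intro A
    show ∀ u v, Cfsg.sympForm d F (((ψ A : GL (Fin d ⊕ Fin d) F) : Md d F) *ᵥ u)
      (((ψ A : GL (Fin d ⊕ Fin d) F) : Md d F) *ᵥ v) = Cfsg.sympForm d F u v
    intro u v
    rw [hψ, hψ, hform, Cfsg.Agent.Lib.Helper13.sympForm_mulVec_of_mem m A.2, ← hform, hEs, hEs]
  have hnorm : ∀ A : ↥(Matrix.symplecticGroup (Fin m) L),
      ψ A ∈ Cfsg.Geo.subalgebraNormalizer K := by
    intro A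
    apply emb2_mem_normalizer
    intro a ha
    obtain ⟨l, rfl⟩ := hιK a ha
    apply emb2_matrix_ext
    intro v
    have h1 : E.symm (ι l *ᵥ v) = l • E.symm v := by
      apply hb.1
      rw [hEs, hι, hEs]
    rw [← Matrix.mulVec_mulVec, ← Matrix.mulVec_mulVec, hψ, hψ, h1, Matrix.mulVec_smul, hι]
  have hmem : ∀ A, ψ A ∈ Cfsg.Geo.subalgebraNormalizer K ⊓ Cfsg.spGL d F :=
    fun A => ⟨hnorm A, hsp A⟩
  have hinj : Function.Injective (ψ.codRestrict _ hmem) := by
    intro A B hAB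
    have h1 : ψ A = ψ B := congrArg Subtype.val hAB
    apply Subtype.ext
    apply emb2_matrix_ext
    intro c
    have h2 := hψ A (Φ c)
    rw [h1, hψ B, hsE] at h2
    exact (hb.1 h2).symm
  exact Subgroup.card_dvd_of_injective (ψ.codRestrict _ hmem) hinj

open Classical in
/-- the field structure on a commutative subalgebra whose non-zero elements are invertible in it -/
@[reducible] noncomputable def emb2Field {F : Type u} [Field F] {d : ℕ} (hd : 1 ≤ d)
    (K : Subalgebra F (Md d F)) (hc : ∀ x ∈ K, ∀ y ∈ K, x * y = y * x)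
    (hi : ∀ x ∈ K, x ≠ 0 → ∃ y ∈ K, x * y = 1) : Field ↥K where
  __ := (inferInstance : Ring ↥K)
  mul_comm a b := Subtype.ext (hc a a.2 b b.2)
  inv a := if ha : a = 0 then 0 else
    ⟨Classical.choose (hi a a.2 (fun h => ha (Subtype.ext h))),
      (Classical.choose_spec (hi a a.2 (fun h => ha (Subtype.ext h)))).1⟩
  exists_pair_ne := ⟨0, 1, fun h => by
    have h1 : (0 : Md d F) = 1 := congrArg Subtype.val h
    have : Nonempty (Fin d ⊕ Fin d) := ⟨Sum.inl ⟨0, hd⟩⟩
    exact zero_ne_one h1⟩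
  mul_inv_cancel a ha := by
    apply Subtype.ext
    have h2 := (Classical.choose_spec (hi a a.2 (fun h => ha (Subtype.ext h)))).2
    show (a : Md d F) * ((if ha : a = 0 then (0 : ↥K) else
      ⟨Classical.choose (hi a a.2 (fun h => ha (Subtype.ext h))),
        (Classical.choose_spec (hi a a.2 (fun h => ha (Subtype.ext h)))).1⟩ : ↥K) : Md d F) = 1
    rw [dif_neg ha]
    exact h2
  inv_zero := dif_pos rfl
  nnqsmul := _
  nnqsmul_def _ _ := rfl
  qsmul := _
  qsmul_def _ _ := rfl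

/-- **[EMB2]** from a `K`-Darboux basis: `d = k m` and `|Sp_{2m}(q^k)|` divides
`|N(K) ∩ Sp_{2d}(q)|`. -/
theorem pkgEmb2 : PkgEmb2.{u} := by
  intro F _ _ d k K hA hd m τ e hD
  classical
  have hq : 2 ≤ Fintype.card F := Fintype.one_lt_card
  have hfinK : Fintype ↥K := Fintype.ofFinite _
  have hcardK : Fintype.card ↥K = Fintype.card F ^ k := by
    have h := Module.card_eq_pow_finrank (K := F) (V := ↥K)
    rw [hA.fld.finrank_eq] at h
    exact h
  have hsm0 : ∀ r : F, ∃ l : ↥K, (l : Md d F) = r • (1 : Md d F) :=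
    fun r => ⟨⟨r • 1, K.smul_mem K.one_mem r⟩, rfl⟩
  constructor
  · have h1 := Fintype.card_of_bijective hD.bij
    rw [Fintype.card_fun, Fintype.card_fun, Fintype.card_sum, Fintype.card_sum, Fintype.card_fin,
      Fintype.card_fin, hcardK, ← pow_mul] at h1
    have h2 : k * (m + m) = d + d := Nat.pow_right_injective hq h1
    rw [mul_add] at h2
    omega
  · letI instField : Field ↥K := emb2Field hd K hA.fld.comm hA.fld.inv
    have hadd : ∀ c c' : Fin m ⊕ Fin m → ↥K,
        (∑ j, ((c + c') j : Md d F) *ᵥ e j) =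
          (∑ j, (c j : Md d F) *ᵥ e j) + ∑ j, (c' j : Md d F) *ᵥ e j := by
      intro c c'
      rw [← Finset.sum_add_distrib]
      apply Finset.sum_congr rfl
      intro j _
      rw [← Matrix.add_mulVec]
      rfl
    have hι : ∀ (l : ↥K) (c : Fin m ⊕ Fin m → ↥K),
        (∑ j, ((l • c) j : Md d F) *ᵥ e j) = (l : Md d F) *ᵥ ∑ j, (c j : Md d F) *ᵥ e j := by
      intro l c
      rw [Matrix.mulVec_sum]
      apply Finset.sum_congr rfl
      intro j _
      rw [Matrix.mulVec_mulVec]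
      rfl
    have hιK : ∀ a ∈ K, ∃ l : ↥K, (l : Md d F) = a := fun a ha => ⟨⟨a, ha⟩, rfl⟩
    have hsm : ∀ r : F, ∃ l : ↥K, ∀ c : Fin m ⊕ Fin m → ↥K,
        (∑ j, ((l • c) j : Md d F) *ᵥ e j) = r • ∑ j, (c j : Md d F) *ᵥ e j := by
      intro r
      obtain ⟨l, hl⟩ := hsm0 r
      refine ⟨l, fun c => ?_⟩
      rw [hι, hl, Matrix.smul_mulVec, Matrix.one_mulVec]
    have hform : ∀ c c' : Fin m ⊕ Fin m → ↥K,
        Cfsg.sympForm d F (∑ j, (c j : Md d F) *ᵥ e j) (∑ j, (c' j : Md d F) *ᵥ e j) =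
          τ (Cfsg.sympForm m ↥K c c') := by
      intro c c'
      rw [Cfsg.Agent.Lib.Helper13.sympForm_eq m c c']
      exact hD.gram c c'
    have habs := emb2_abs K (L := ↥K)
      (fun c : Fin m ⊕ Fin m → ↥K => ∑ j, (c j : Md d F) *ᵥ e j) hD.bij hadd
      (fun l : ↥K => (l : Md d F)) hι hιK hsm (fun l => τ l) hform
    have hcard := Cfsg.Agent.Lib.Helper40.card_symplecticGroup (F := ↥K) m
    rw [hcard, hcardK] at habs
    exact habs

end Cfsg.Agent.Lib.Helper64.FXSP
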